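import Cfsg.Statements.S4463
import Mathlib

/-!
# S4463 team project: interface (package statements as `Prop`s)

Every package is a `def LemX : Prop` (universe polymorphic in `u`); a package is delivered as
`theorem lemX : Cfsg.Agent.Lib.Helper86.IP.LemX.{u}` in the deliverer's own file.
-/

set_option autoImplicit false

namespace Cfsg.Agent.Lib.Helper86.IP

universe u

/-- `b` is the largest irreducible character degree of `X` (exactly the hypothesis of S4463). -/
def IsB (X : Type u) [Group X] (b : ℕ) : Prop :=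
  IsGreatest {d : ℕ | ∃ χ : Cfsg.IrrCharacter X, Cfsg.charDegree (χ : X → ℂ) = d} b

/-- A largest degree exists. -/
def LemEx : Prop :=
  ∀ (X : Type u) [Group X] [Finite X], ∃ b : ℕ, IsB X b

/-- The largest degree is positive. -/
def LemPos : Prop :=
  ∀ (X : Type u) [Group X] [Finite X] (b : ℕ), IsB X b → 1 ≤ b

/-- All degrees `≤ 1` implies commutative. -/
def LemAb : Prop :=
  ∀ (X : Type u) [Group X] [Finite X] (b : ℕ), IsB X b → b ≤ 1 → ∀ x y : X, x * y = y * x

/-- Monotonicity for subgroups. -/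
def LemSub : Prop :=
  ∀ (X : Type u) [Group X] [Finite X] (H : Subgroup X) (b b' : ℕ),
    IsB X b → IsB ↥H b' → b' ≤ b

/-- Monotonicity for quotients. -/
def LemQuot : Prop :=
  ∀ (X : Type u) [Group X] [Finite X] (K : Subgroup X) [K.Normal] (b b' : ℕ),
    IsB X b → IsB (X ⧸ K) b' → b' ≤ b

/-- Degrees `≤ 4` implies solvable. -/
def LemSolv : Prop :=
  ∀ (X : Type u) [Group X] [Finite X] (b : ℕ), IsB X b → b ≤ 4 → Group.IsSolvable X

/-- Class counting: some nontrivial element has a class of size `≤ b²`. -/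
def LemCount : Prop :=
  ∀ (X : Type u) [Group X] [Finite X] [Nontrivial X] (b : ℕ), IsB X b →
    ∃ g : X, g ≠ 1 ∧ (Subgroup.centralizer {g}).index ≤ b ^ 2

/-- Lemma A, vanishing form: an irreducible character of `H` of degree `b(X)` vanishes off
the normal core of `H` in `X`. -/
def LemVanA : Prop :=
  ∀ (X : Type u) [Group X] [Finite X] (H : Subgroup X) (b : ℕ), IsB X b →
    ∀ ψ : Cfsg.IrrCharacter ↥H, Cfsg.charDegree (ψ : ↥H → ℂ) = b →
      ∀ h : ↥H, (h : X) ∉ H.normalCore → (ψ : ↥H → ℂ) h = 0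

/-- Clifford: an irreducible character vanishing off the normal subgroup `D` has
`|Y : D|` dividing the square of its degree. -/
def LemCliff : Prop :=
  ∀ (Y : Type u) [Group Y] [Finite Y] (D : Subgroup Y) [D.Normal] (ψ : Cfsg.IrrCharacter Y),
    (∀ y : Y, y ∉ D → (ψ : Y → ℂ) y = 0) →
      D.index ∣ (Cfsg.charDegree (ψ : Y → ℂ)) ^ 2

/-- Lemma A: if `b(H) = b(X)` then `|H : core_X(H)|` divides `b²`. -/
def LemA : Prop :=
  ∀ (X : Type u) [Group X] [Finite X] (H : Subgroup X) (b : ℕ),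
    IsB X b → IsB ↥H b → H.normalCore.relIndex H ∣ b ^ 2

/-- Lemma V: `K ≤ N` normal in `X`, `N/K` abelian, no element of `N ∖ K` central modulo `K`,
and `b(N) = b(X)`: then `|N : K|` divides `b²`. -/
def LemV : Prop :=
  ∀ (X : Type u) [Group X] [Finite X] (K N : Subgroup X) [K.Normal] [N.Normal] (b : ℕ),
    K ≤ N → (∀ x ∈ N, ∀ y ∈ N, x * y * x⁻¹ * y⁻¹ ∈ K) →
    (∀ n ∈ N, n ∉ K → ∃ g : X, g * n * g⁻¹ * n⁻¹ ∉ K) →
    IsB X b → IsB ↥N b → K.relIndex N ∣ b ^ 2

/-- Lemma N1: if `X ⧸ K` is nonabelian then `2 b(K) ≤ b(X)`. -/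
def LemN1 : Prop :=
  ∀ (X : Type u) [Group X] [Finite X] (K : Subgroup X) [K.Normal] (b b' : ℕ),
    (¬ ∀ x y : X ⧸ K, x * y = y * x) → IsB X b → IsB ↥K b' → 2 * b' ≤ b

/-- Existence of a normal subgroup `K` with `X ⧸ K` nonabelian, all of whose proper quotients
are abelian. -/
def LemK : Prop :=
  ∀ (X : Type u) [Group X] [Finite X], (¬ ∀ x y : X, x * y = y * x) →
    ∃ K : Subgroup X, ∃ _hK : K.Normal, (¬ ∀ x y : X ⧸ K, x * y = y * x) ∧
      ∀ N : Subgroup (X ⧸ K), N.Normal → N ≠ ⊥ → commutator (X ⧸ K) ≤ N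

/-- Case I (the quotient `X ⧸ K` has nontrivial centre): the preimage of the centre has index
`≤ b²` and strictly smaller largest degree. -/
def LemCI : Prop :=
  ∀ (X : Type u) [Group X] [Finite X] (K : Subgroup X) [K.Normal] (b : ℕ), IsB X b →
    (¬ ∀ x y : X ⧸ K, x * y = y * x) →
    (∀ N : Subgroup (X ⧸ K), N.Normal → N ≠ ⊥ → commutator (X ⧸ K) ≤ N) →
    Subgroup.center (X ⧸ K) ≠ ⊥ →
    ((Subgroup.center (X ⧸ K)).comap (QuotientGroup.mk' K)).index ≤ b ^ 2 ∧
      ∃ b' : ℕ, b' < b ∧ IsB ↥((Subgroup.center (X ⧸ K)).comap (QuotientGroup.mk' K)) b'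

/-- Structure of `Q` in case II with abelian commutator subgroup (a Frobenius group with
kernel `Q'` and abelian complement `L`). Pure group theory. -/
def LemStr : Prop :=
  ∀ (Q : Type u) [Group Q] [Finite Q],
    (¬ ∀ x y : Q, x * y = y * x) →
    (∀ N : Subgroup Q, N.Normal → N ≠ ⊥ → commutator Q ≤ N) →
    Subgroup.center Q = ⊥ →
    (∀ x ∈ commutator Q, ∀ y ∈ commutator Q, x * y = y * x) →
    ∃ L : Subgroup Q, L.normalCore = ⊥ ∧
      Nat.card L * Nat.card (commutator Q) = Nat.card Q ∧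
      Nat.Coprime (Nat.card L) (Nat.card (commutator Q)) ∧
      ∀ g : Q, g ≠ 1 → (Nat.card L ≤ (Subgroup.centralizer {g}).index ∨
        Nat.card (commutator Q) ≤ (Subgroup.centralizer {g}).index)

/-- Case II with nonabelian commutator subgroup. Pure group theory. -/
def LemNon : Prop :=
  ∀ (Q : Type u) [Group Q] [Finite Q],
    (∀ N : Subgroup Q, N.Normal → N ≠ ⊥ → commutator Q ≤ N) →
    (¬ ∀ x ∈ commutator Q, ∀ y ∈ commutator Q, x * y = y * x) →
    ¬ Group.IsSolvable Q ∧ ∀ g : Q, g ≠ 1 → (Subgroup.centralizer {g}).normalCore = ⊥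

end Cfsg.Agent.Lib.Helper86.IP
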