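import Cfsg.Agent.Lib.Helper86.IP.Assembly
import Cfsg.Agent.Lib.Helper82.IP.SmallDeg
import Cfsg.Agent.Lib.Helper10.IP.LemA
import Cfsg.Agent.Lib.Helper10.IP.N1

/-!
# S4463 team project: adapters from landed libraries to the package `Prop`s
-/

set_option autoImplicit false

namespace Cfsg.Agent.Lib.Helper86.IP

universe u

theorem lemSub : LemSub.{u} := by
  intro X _ _ H b b' hb hb'
  obtain ⟨ψ, hψ⟩ := hb'.1
  obtain ⟨χ, hχ⟩ := Cfsg.Agent.Lib.Helper82.IP.exists_irr_degree_ge H ψ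
  have h1 : Cfsg.charDegree (χ : X → ℂ) ≤ b := hb.2 ⟨χ, rfl⟩
  rw [← hψ]; exact hχ.trans h1

theorem lemQuot : LemQuot.{u} := by
  intro X _ _ K _ b b' hb hb'
  obtain ⟨ψ, hψ⟩ := hb'.1
  obtain ⟨χ, hχ⟩ := Cfsg.Agent.Lib.Helper82.IP.exists_irr_degree_eq_of_quotient K ψ
  have h1 : Cfsg.charDegree (χ : X → ℂ) ≤ b := hb.2 ⟨χ, rfl⟩
  rw [← hψ, ← hχ]; exact h1

theorem lemSolv : LemSolv.{u} := by
  intro X _ _ b hb h4
  exact Cfsg.Agent.Lib.Helper82.IP.isSolvable_of_charDegree_le_four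
    (fun χ => (hb.2 ⟨χ, rfl⟩ : Cfsg.charDegree (χ : X → ℂ) ≤ b).trans h4)

theorem lemVanA : LemVanA.{u} := by
  intro X _ _ H b hb ψ hψ h hh
  have hex : ∃ x : X, x * (h : X) * x⁻¹ ∉ H := by
    by_contra hne
    push_neg at hne
    exact hh hne
  obtain ⟨x, hx⟩ := hex
  exact Cfsg.Agent.Lib.Helper10.IP.vanish_off_core b
    (fun χ => (hb.2 ⟨χ, rfl⟩ : Cfsg.charDegree (χ : X → ℂ) ≤ b)) H ψ ψ.2 (le_of_eq hψ.symm) h x hx

theorem lemN1 : LemN1.{u} := by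
  intro X _ _ K _ b b' hna hb hb'
  obtain ⟨θ, hθ⟩ := hb'.1
  have hK : ∃ x y : X, x * y * x⁻¹ * y⁻¹ ∉ K := by
    by_contra h
    push_neg at h
    apply hna
    intro x y
    obtain ⟨x, rfl⟩ := QuotientGroup.mk'_surjective K x
    obtain ⟨y, rfl⟩ := QuotientGroup.mk'_surjective K y
    have h1 : ((x * y * x⁻¹ * y⁻¹ : X) : X ⧸ K) = 1 := (QuotientGroup.eq_one_iff _).mpr (h x y)
    have h2 : ((x * y * x⁻¹ * y⁻¹ : X) : X ⧸ K) =
        QuotientGroup.mk' K x * QuotientGroup.mk' K y * (QuotientGroup.mk' K x)⁻¹ *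
          (QuotientGroup.mk' K y)⁻¹ := rfl
    rw [h2] at h1
    have := congrArg (fun t => t * QuotientGroup.mk' K y * QuotientGroup.mk' K x) h1
    simpa [mul_assoc] using this
  have h3 := Cfsg.Agent.Lib.Helper10.IP.two_mul_degree_le b
    (fun χ => (hb.2 ⟨χ, rfl⟩ : Cfsg.charDegree (χ : X → ℂ) ≤ b)) K hK θ
  rwa [hθ] at h3

end Cfsg.Agent.Lib.Helper86.IP

namespace Cfsg.Agent.Lib.Helper86.IP

universe u

/-- Case I from the quotient-free form (`Helper82.IP.case_center`), given as a hypothesis. -/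
theorem lemCIx_of_case_center (hex : LemEx.{u})
    (hcc : ∀ {G : Type u} [Group G] [Finite G] (b : ℕ)
      (_ : ∀ χ : Cfsg.IrrCharacter G, Cfsg.charDegree (χ : G → ℂ) ≤ b) (K : Subgroup G) [K.Normal]
      (_ : ∃ x y : G, x * y * x⁻¹ * y⁻¹ ∉ K)
      (_ : ∀ L : Subgroup G, L.Normal → K ≤ L → L ≠ K → ∀ x y : G, x * y * x⁻¹ * y⁻¹ ∈ L)
      (z : G) (_ : z ∉ K) (_ : ∀ g : G, g * z * g⁻¹ * z⁻¹ ∈ K),
      ∃ H : Subgroup G, H.index ≤ b ^ 2 ∧
        ∀ ψ : Cfsg.IrrCharacter H, Cfsg.charDegree (ψ : H → ℂ) < b) :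
    LemCIx.{u} := by
  intro X _ _ K _ b hb hQna hQmin hZ
  have hsurj : Function.Surjective (QuotientGroup.mk' K) := QuotientGroup.mk'_surjective K
  have hmk : ∀ x y : X, ((x * y * x⁻¹ * y⁻¹ : X) : X ⧸ K) =
      QuotientGroup.mk' K x * QuotientGroup.mk' K y * (QuotientGroup.mk' K x)⁻¹ *
        (QuotientGroup.mk' K y)⁻¹ := fun _ _ => rfl
  have hnab : ∃ x y : X, x * y * x⁻¹ * y⁻¹ ∉ K := by
    by_contra h
    push_neg at h
    apply hQna
    intro x y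
    obtain ⟨x, rfl⟩ := hsurj x
    obtain ⟨y, rfl⟩ := hsurj y
    have h1 : ((x * y * x⁻¹ * y⁻¹ : X) : X ⧸ K) = 1 := (QuotientGroup.eq_one_iff _).mpr (h x y)
    rw [hmk] at h1
    have := congrArg (fun t => t * QuotientGroup.mk' K y * QuotientGroup.mk' K x) h1
    simpa [mul_assoc] using this
  have hmax : ∀ L : Subgroup X, L.Normal → K ≤ L → L ≠ K →
      ∀ x y : X, x * y * x⁻¹ * y⁻¹ ∈ L := by
    intro L hL hKL hne x y
    have hN : (L.map (QuotientGroup.mk' K)).Normal := Subgroup.Normal.map hL _ hsurj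
    have hNne : L.map (QuotientGroup.mk' K) ≠ ⊥ := by
      intro hbot
      apply hne
      refine le_antisymm ?_ hKL
      intro l hl
      have h1 : QuotientGroup.mk' K l ∈ L.map (QuotientGroup.mk' K) := Subgroup.mem_map_of_mem _ hl
      rw [hbot, Subgroup.mem_bot] at h1
      exact (QuotientGroup.eq_one_iff l).mp h1
    have h2 := hQmin _ hN hNne
    have h3 : ((x * y * x⁻¹ * y⁻¹ : X) : X ⧸ K) ∈ commutator (X ⧸ K) := by
      rw [hmk, commutator_def]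
      exact Subgroup.commutator_mem_commutator (Subgroup.mem_top _) (Subgroup.mem_top _)
    obtain ⟨l, hl, hle⟩ := h2 h3
    have h4 : l⁻¹ * (x * y * x⁻¹ * y⁻¹) ∈ K := QuotientGroup.eq.mp hle
    have h5 := L.mul_mem hl (hKL h4)
    simpa using h5
  obtain ⟨⟨q, hqc⟩, hq1⟩ := (Subgroup.ne_bot_iff_exists_ne_one).mp hZ
  have hq1' : q ≠ 1 := fun h => hq1 (Subtype.ext h)
  obtain ⟨z, rfl⟩ := hsurj q
  have hzK : z ∉ K := fun h => hq1' ((QuotientGroup.eq_one_iff z).mpr h)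
  have hz : ∀ g : X, g * z * g⁻¹ * z⁻¹ ∈ K := by
    intro g
    rw [← QuotientGroup.eq_one_iff, hmk]
    have := (Subgroup.mem_center_iff.mp hqc) (QuotientGroup.mk' K g)
    rw [this]; group
  obtain ⟨H, hHi, hψ⟩ := hcc b (fun χ => (hb.2 ⟨χ, rfl⟩ : Cfsg.charDegree (χ : X → ℂ) ≤ b)) K
    hnab hmax z hzK hz
  obtain ⟨b', hb'⟩ := hex ↥H
  refine ⟨H, hHi, b', ?_, hb'⟩
  obtain ⟨ψ, hψ'⟩ := hb'.1
  rw [← hψ']; exact hψ ψ

end Cfsg.Agent.Lib.Helper86.IP
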