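import Cfsg.Agent.Lib.Helper86.IP.Defs

/-!
# S4463 team project: assembly

Given all packages (as hypotheses), proves the statement of S4463.
-/

set_option autoImplicit false

namespace Cfsg.Agent.Lib.Helper86.IP

universe u

/-- Case I, existential form (what the assembly really uses). -/
def LemCIx : Prop :=
  ∀ (X : Type u) [Group X] [Finite X] (K : Subgroup X) [K.Normal] (b : ℕ), IsB X b →
    (¬ ∀ x y : X ⧸ K, x * y = y * x) →
    (∀ N : Subgroup (X ⧸ K), N.Normal → N ≠ ⊥ → commutator (X ⧸ K) ≤ N) →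
    Subgroup.center (X ⧸ K) ≠ ⊥ →
    ∃ H : Subgroup X, H.index ≤ b ^ 2 ∧ ∃ b' : ℕ, b' < b ∧ IsB ↥H b'

theorem lemCIx_of_lemCI (h : LemCI.{u}) : LemCIx.{u} := by
  intro X _ _ K _ b hb h1 h2 h3
  obtain ⟨h4, b', hb', hB'⟩ := h X K b hb h1 h2 h3
  exact ⟨_, h4, b', hb', hB'⟩

/-- The packages of the project. -/
structure Pkgs : Prop where
  ex : LemEx.{u}
  pos : LemPos.{u}
  ab : LemAb.{u}
  sub : LemSub.{u}
  quot : LemQuot.{u}
  solv : LemSolv.{u}
  count : LemCount.{u}
  a : LemA.{u}
  v : LemV.{u}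
  n1 : LemN1.{u}
  k : LemK.{u}
  ci : LemCIx.{u}
  str : LemStr.{u}
  non : LemNon.{u}

/-- Lemma A from its two halves. -/
theorem lemA_of (hV : LemVanA.{u}) (hC : LemCliff.{u}) : LemA.{u} := by
  intro X _ _ H b hb hbH
  obtain ⟨ψ, hψ⟩ := hbH.1
  have h := hC ↥H (H.normalCore.subgroupOf H) ψ
    (fun y hy => hV X H b hb ψ hψ y (by simpa [Subgroup.mem_subgroupOf] using hy))
  rw [hψ] at h
  exact h

theorem comap_normalCore_of_surj {G Q : Type*} [Group G] [Group Q] (f : G →* Q)
    (hf : Function.Surjective f) (L : Subgroup Q) :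
    (L.comap f).normalCore = L.normalCore.comap f := by
  ext a
  show (∀ b : G, b * a * b⁻¹ ∈ L.comap f) ↔ (∀ q : Q, q * f a * q⁻¹ ∈ L)
  constructor
  · intro h q
    obtain ⟨b, rfl⟩ := hf q
    have := h b
    simpa [Subgroup.mem_comap] using this
  · intro h b
    have := h (f b)
    simpa [Subgroup.mem_comap] using this

theorem fact_step1 {b b' : ℕ} (h : b' < b) :
    (Nat.factorial b') ^ 2 * b ^ 2 ≤ (Nat.factorial b) ^ 2 := by
  obtain ⟨c, rfl⟩ : ∃ c, b = c + 1 := ⟨b - 1, by omega⟩
  have h1 : Nat.factorial b' ≤ Nat.factorial c := Nat.factorial_le (by omega)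
  have h2 : Nat.factorial (c + 1) = (c + 1) * Nat.factorial c := Nat.factorial_succ c
  rw [h2, ← mul_pow]
  exact Nat.pow_le_pow_left (by rw [mul_comm]; exact Nat.mul_le_mul_left _ h1) 2

theorem fact_step2 {b b' : ℕ} (h5 : 5 ≤ b) (h : 2 * b' ≤ b) :
    (Nat.factorial b') ^ 2 * b ^ 4 ≤ (Nat.factorial b) ^ 2 := by
  obtain ⟨c, rfl⟩ : ∃ c, b = c + 3 := ⟨b - 3, by omega⟩
  have h1 : Nat.factorial b' ≤ Nat.factorial c := Nat.factorial_le (by omega)
  have h2 : Nat.factorial (c + 3) = (c + 3) * ((c + 2) * ((c + 1) * Nat.factorial c)) := by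
    rw [Nat.factorial_succ, Nat.factorial_succ, Nat.factorial_succ]
  have h3 : (c + 3) ^ 2 ≤ (c + 3) * ((c + 2) * (c + 1)) := by
    have : c + 3 ≤ (c + 2) * (c + 1) := by nlinarith
    calc (c + 3) ^ 2 = (c + 3) * (c + 3) := by ring
      _ ≤ (c + 3) * ((c + 2) * (c + 1)) := Nat.mul_le_mul_left _ this
  have h4 : Nat.factorial b' * (c + 3) ^ 2 ≤ Nat.factorial (c + 3) := by
    rw [h2]
    calc Nat.factorial b' * (c + 3) ^ 2 ≤ Nat.factorial c * ((c + 3) * ((c + 2) * (c + 1))) :=
          Nat.mul_le_mul h1 h3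
      _ = (c + 3) * ((c + 2) * ((c + 1) * Nat.factorial c)) := by ring
  calc (Nat.factorial b') ^ 2 * (c + 3) ^ 4 = (Nat.factorial b' * (c + 3) ^ 2) ^ 2 := by ring
    _ ≤ (Nat.factorial (c + 3)) ^ 2 := Nat.pow_le_pow_left h4 2

/-- The inductive step. -/
theorem step (P : Pkgs.{u}) (X : Type u) [Group X] [Finite X] (b : ℕ) (hb : IsB X b)
    (hna : ¬ ∀ x y : X, x * y = y * x) :
    (∃ H : Subgroup X, H.index ≤ b ^ 2 ∧ ∃ b' : ℕ, b' < b ∧ IsB ↥H b') ∨
    (5 ≤ b ∧ ∃ K : Subgroup X, K.index ≤ b ^ 4 ∧ ∃ b' : ℕ, IsB ↥K b' ∧ 2 * b' ≤ b) := by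
  obtain ⟨K, hK, hQna, hQmin⟩ := P.k X hna
  haveI := hK
  have hb1 : 1 ≤ b := P.pos X b hb
  have hsurj : Function.Surjective (QuotientGroup.mk' K) := QuotientGroup.mk'_surjective K
  by_cases hZ : Subgroup.center (X ⧸ K) = ⊥
  · by_cases hVab : ∀ x ∈ commutator (X ⧸ K), ∀ y ∈ commutator (X ⧸ K), x * y = y * x
    · -- Case II, abelian commutator subgroup
      obtain ⟨L, hLcore, hcard, hcop, hcent⟩ := P.str (X ⧸ K) hQna hQmin hZ hVab
      have hVpos : 0 < Nat.card (commutator (X ⧸ K)) := Nat.card_pos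
      have hLpos : 0 < Nat.card L := Nat.card_pos
      have hVL : (commutator (X ⧸ K)).index = Nat.card L := by
        have h1 := Subgroup.card_mul_index (commutator (X ⧸ K))
        rw [← hcard, mul_comm] at h1
        exact Nat.eq_of_mul_eq_mul_right hVpos h1
      have hLV : L.index = Nat.card (commutator (X ⧸ K)) := by
        have h1 := Subgroup.card_mul_index L
        rw [← hcard] at h1
        exact Nat.eq_of_mul_eq_mul_left hLpos h1
      have hNi : ((commutator (X ⧸ K)).comap (QuotientGroup.mk' K)).index = Nat.card L := by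
        rw [Subgroup.index_comap_of_surjective _ hsurj, hVL]
      have hTi : (L.comap (QuotientGroup.mk' K)).index = Nat.card (commutator (X ⧸ K)) := by
        rw [Subgroup.index_comap_of_surjective _ hsurj, hLV]
      have hKN : K ≤ (commutator (X ⧸ K)).comap (QuotientGroup.mk' K) := by
        intro x hx
        rw [Subgroup.mem_comap]
        have : QuotientGroup.mk' K x = 1 := (QuotientGroup.eq_one_iff x).mpr hx
        rw [this]; exact Subgroup.one_mem _
      have hKT : K ≤ L.comap (QuotientGroup.mk' K) := by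
        intro x hx
        rw [Subgroup.mem_comap]
        have : QuotientGroup.mk' K x = 1 := (QuotientGroup.eq_one_iff x).mpr hx
        rw [this]; exact Subgroup.one_mem _
      have hKi : K.index = Nat.card (X ⧸ K) := rfl
      have hrelN : K.relIndex ((commutator (X ⧸ K)).comap (QuotientGroup.mk' K)) =
          Nat.card (commutator (X ⧸ K)) := by
        have h1 := Subgroup.relIndex_mul_index hKN
        rw [hNi, hKi, ← hcard, mul_comm] at h1
        exact Nat.eq_of_mul_eq_mul_left hLpos h1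
      have hrelT : K.relIndex (L.comap (QuotientGroup.mk' K)) = Nat.card L := by
        have h1 := Subgroup.relIndex_mul_index hKT
        rw [hTi, hKi, ← hcard] at h1
        exact Nat.eq_of_mul_eq_mul_right hVpos h1
      have hTcore : (L.comap (QuotientGroup.mk' K)).normalCore = K := by
        rw [comap_normalCore_of_surj _ hsurj, hLcore, MonoidHom.comap_bot, QuotientGroup.ker_mk']
      haveI hNn : ((commutator (X ⧸ K)).comap (QuotientGroup.mk' K)).Normal :=
        Subgroup.Normal.comap inferInstance _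
      have hab : ∀ x ∈ (commutator (X ⧸ K)).comap (QuotientGroup.mk' K),
          ∀ y ∈ (commutator (X ⧸ K)).comap (QuotientGroup.mk' K), x * y * x⁻¹ * y⁻¹ ∈ K := by
        intro x hx y hy
        rw [Subgroup.mem_comap] at hx hy
        have h1 := hVab _ hx _ hy
        rw [← QuotientGroup.eq_one_iff]
        have h2 : ((x * y * x⁻¹ * y⁻¹ : X) : X ⧸ K) =
            QuotientGroup.mk' K x * QuotientGroup.mk' K y * (QuotientGroup.mk' K x)⁻¹ *
              (QuotientGroup.mk' K y)⁻¹ := rfl
        rw [h2, h1]; group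
      have hnc : ∀ n ∈ (commutator (X ⧸ K)).comap (QuotientGroup.mk' K), n ∉ K →
          ∃ g : X, g * n * g⁻¹ * n⁻¹ ∉ K := by
        intro n _ hnK
        have h1 : QuotientGroup.mk' K n ∉ Subgroup.center (X ⧸ K) := by
          rw [hZ, Subgroup.mem_bot]
          intro h; exact hnK ((QuotientGroup.eq_one_iff n).mp h)
        rw [Subgroup.mem_center_iff] at h1
        push_neg at h1
        obtain ⟨q, hq⟩ := h1
        obtain ⟨g, rfl⟩ := hsurj q
        refine ⟨g, fun hmem => hq ?_⟩
        have h2 : ((g * n * g⁻¹ * n⁻¹ : X) : X ⧸ K) = 1 := (QuotientGroup.eq_one_iff _).mpr hmem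
        have h3 : ((g * n * g⁻¹ * n⁻¹ : X) : X ⧸ K) =
            QuotientGroup.mk' K g * QuotientGroup.mk' K n * (QuotientGroup.mk' K g)⁻¹ *
              (QuotientGroup.mk' K n)⁻¹ := rfl
        rw [h3] at h2
        have h4 : QuotientGroup.mk' K g * QuotientGroup.mk' K n =
            QuotientGroup.mk' K n * QuotientGroup.mk' K g := by
          have := congrArg (fun t => t * QuotientGroup.mk' K n * QuotientGroup.mk' K g) h2
          simpa [mul_assoc] using this
        exact h4
      obtain ⟨bN, hbN⟩ := P.ex ↥((commutator (X ⧸ K)).comap (QuotientGroup.mk' K))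
      obtain ⟨bT, hbT⟩ := P.ex ↥(L.comap (QuotientGroup.mk' K))
      obtain ⟨bK, hbK⟩ := P.ex ↥K
      have hbNb := P.sub X _ b bN hb hbN
      have hbTb := P.sub X _ b bT hb hbT
      have h2 := P.n1 X K b bK hQna hb hbK
      have hVdvd : bN = b → Nat.card (commutator (X ⧸ K)) ∣ b ^ 2 := by
        intro h; subst h
        have := P.v X K _ bN hKN hab hnc hb hbN
        rwa [hrelN] at this
      have hLdvd : bT = b → Nat.card L ∣ b ^ 2 := by
        intro h; subst h
        have := P.a X _ bT hb hbT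
        rwa [hTcore, hrelT] at this
      have hb2 : 0 < b ^ 2 := by positivity
      left
      by_cases h1 : bN = b
      · by_cases h2' : bT = b
        · refine ⟨K, ?_, bK, by omega, hbK⟩
          have : Nat.card L * Nat.card (commutator (X ⧸ K)) ∣ b ^ 2 :=
            Nat.Coprime.mul_dvd_of_dvd_of_dvd hcop (hLdvd h2') (hVdvd h1)
          rw [hKi, ← hcard]; exact Nat.le_of_dvd hb2 this
        · refine ⟨_, ?_, bT, lt_of_le_of_ne hbTb h2', hbT⟩
          rw [hTi]; exact Nat.le_of_dvd hb2 (hVdvd h1)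
      · by_cases h2' : bT = b
        · refine ⟨_, ?_, bN, lt_of_le_of_ne hbNb h1, hbN⟩
          rw [hNi]; exact Nat.le_of_dvd hb2 (hLdvd h2')
        · haveI : Nontrivial (X ⧸ K) := by
            by_contra h
            rw [not_nontrivial_iff_subsingleton] at h
            exact hQna (fun x y => Subsingleton.elim _ _)
          obtain ⟨bQ, hbQ⟩ := P.ex (X ⧸ K)
          have hbQb := P.quot X K b bQ hb hbQ
          obtain ⟨g, hg1, hgi⟩ := P.count (X ⧸ K) bQ hbQ
          have hgi' : (Subgroup.centralizer {g}).index ≤ b ^ 2 :=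
            hgi.trans (Nat.pow_le_pow_left hbQb 2)
          rcases hcent g hg1 with h | h
          · exact ⟨_, by rw [hNi]; exact h.trans hgi', bN, lt_of_le_of_ne hbNb h1, hbN⟩
          · exact ⟨_, by rw [hTi]; exact h.trans hgi', bT, lt_of_le_of_ne hbTb h2', hbT⟩
    · -- Case II, nonabelian commutator subgroup
      obtain ⟨hns, hcore⟩ := P.non (X ⧸ K) hQmin hVab
      haveI : Nontrivial (X ⧸ K) := by
        by_contra h
        rw [not_nontrivial_iff_subsingleton] at h
        exact hQna (fun x y => Subsingleton.elim _ _)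
      obtain ⟨bQ, hbQ⟩ := P.ex (X ⧸ K)
      have hbQb := P.quot X K b bQ hb hbQ
      obtain ⟨g, hg1, hgi⟩ := P.count (X ⧸ K) bQ hbQ
      have hHi : ((Subgroup.centralizer {g}).comap (QuotientGroup.mk' K)).index ≤ b ^ 2 := by
        rw [Subgroup.index_comap_of_surjective _ hsurj]
        exact hgi.trans (Nat.pow_le_pow_left hbQb 2)
      have hHcore : ((Subgroup.centralizer {g}).comap (QuotientGroup.mk' K)).normalCore = K := by
        rw [comap_normalCore_of_surj _ hsurj, hcore g hg1, MonoidHom.comap_bot,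
          QuotientGroup.ker_mk']
      obtain ⟨bH, hbH⟩ := P.ex ↥((Subgroup.centralizer {g}).comap (QuotientGroup.mk' K))
      have hbHb := P.sub X _ b bH hb hbH
      rcases lt_or_eq_of_le hbHb with hlt | heq
      · left; exact ⟨_, hHi, bH, hlt, hbH⟩
      · right
        subst heq
        have hdiv := P.a X _ bH hb hbH
        rw [hHcore] at hdiv
        have hKH : K ≤ (Subgroup.centralizer {g}).comap (QuotientGroup.mk' K) := by
          conv_lhs => rw [← hHcore]
          exact Subgroup.normalCore_le _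
        have hb2 : 0 < bH ^ 2 := by positivity
        have hKi : K.index ≤ bH ^ 4 := by
          rw [← Subgroup.relIndex_mul_index hKH]
          calc K.relIndex _ * _ ≤ bH ^ 2 * bH ^ 2 :=
                Nat.mul_le_mul (Nat.le_of_dvd hb2 hdiv) hHi
            _ = bH ^ 4 := by ring
        obtain ⟨bK, hbK⟩ := P.ex ↥K
        have h2 := P.n1 X K bH bK hQna hb hbK
        refine ⟨?_, K, hKi, bK, hbK, h2⟩
        by_contra h5
        push_neg at h5
        haveI hs : Group.IsSolvable X := P.solv X bH hb (by omega)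
        exact hns (Group.isSolvable_of_surjective hsurj)
  · -- Case I
    left
    exact P.ci X K b hb hQna hQmin hZ

/-- The main theorem, by strong induction on `b`. -/
theorem main (P : Pkgs.{u}) (b : ℕ) : ∀ (X : Type u) [Group X] [Finite X], IsB X b →
    ∃ A : Subgroup X, (∀ x ∈ A, ∀ y ∈ A, x * y = y * x) ∧
      A.index ≤ (Nat.factorial b) ^ 2 := by
  induction b using Nat.strong_induction_on with
  | _ b ih =>
    intro X _ _ hb
    by_cases hab : ∀ x y : X, x * y = y * x
    · refine ⟨⊤, fun x _ y _ => hab x y, ?_⟩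
      rw [Subgroup.index_top]
      exact Nat.one_le_pow _ _ (Nat.factorial_pos b)
    · rcases step P X b hb hab with ⟨H, hHi, b', hb', hB'⟩ | ⟨h5, K, hKi, b', hB', h2⟩
      · obtain ⟨A, hA, hAi⟩ := ih b' hb' ↥H hB'
        refine ⟨A.map H.subtype, ?_, ?_⟩
        · rintro _ ⟨x, hx, rfl⟩ _ ⟨y, hy, rfl⟩
          have := hA x hx y hy
          exact congrArg Subtype.val this
        · rw [Subgroup.index_map_subtype]
          calc A.index * H.index ≤ (Nat.factorial b') ^ 2 * b ^ 2 := Nat.mul_le_mul hAi hHi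
            _ ≤ (Nat.factorial b) ^ 2 := fact_step1 hb'
      · obtain ⟨A, hA, hAi⟩ := ih b' (by omega) ↥K hB'
        refine ⟨A.map K.subtype, ?_, ?_⟩
        · rintro _ ⟨x, hx, rfl⟩ _ ⟨y, hy, rfl⟩
          have := hA x hx y hy
          exact congrArg Subtype.val this
        · rw [Subgroup.index_map_subtype]
          calc A.index * K.index ≤ (Nat.factorial b') ^ 2 * b ^ 4 := Nat.mul_le_mul hAi hKi
            _ ≤ (Nat.factorial b) ^ 2 := fact_step2 h5 h2

/-- S4463 from the packages. -/
theorem s4463_of (P : Pkgs.{u}) {G : Type u} [Group G] [Finite G] (b : ℕ)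
    (hb : IsGreatest {d : ℕ | ∃ χ : Cfsg.IrrCharacter G, Cfsg.charDegree (χ : G → ℂ) = d} b) :
    ∃ A : Subgroup G, (∀ x ∈ A, ∀ y ∈ A, x * y = y * x) ∧ A.index ≤ (Nat.factorial b) ^ 2 :=
  main P b G hb

end Cfsg.Agent.Lib.Helper86.IP
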